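import Cfsg.Agent.Lib.Helper19.TC2S
import Mathlib.LinearAlgebra.Matrix.GeneralLinearGroup.Defs
import Mathlib.Data.ZMod.Basic

/-! Kernel-checkable products of matrices over `ZMod p`, packed four bits per entry. -/

set_option autoImplicit false

namespace Cfsg.Agent.Lib.Helper19.MatC

open Cfsg.Agent.Lib.Helper19.TC2

/-- entry `(i, j)` of a packed matrix with `n` columns -/
def ent (n T i j : ℕ) : ℕ :=
  Nat.land (Nat.shiftRight T (Nat.mul 4 (Nat.add (Nat.mul n i) j))) 15

/-- `∑ k < m, A i k * B k j` -/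
def dot (n A B i j : ℕ) : ℕ → ℕ :=
  Nat.rec 0 (fun k ih => Nat.add (Nat.mul (ent n A i k) (ent n B k j)) ih)

def chkMul (n p A B C : ℕ) : Bool :=
  loop (fun i => loop (fun j => Nat.beq (Nat.mod (dot n A B i j n) p) (ent n C i j)) 0 n) 0 n

def chkOne (n C : ℕ) : Bool :=
  loop (fun i => loop (fun j => Nat.beq (ent n C i j) (cond (Nat.beq i j) 1 0)) 0 n) 0 n

def toM (n p T : ℕ) : Matrix (Fin n) (Fin n) (ZMod p) := fun i j => (ent n T i.1 j.1 : ZMod p)

theorem dot_eq (n A B i j : ℕ) : ∀ m, dot n A B i j m =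
    ∑ k ∈ Finset.range m, ent n A i k * ent n B k j
  | 0 => rfl
  | m + 1 => by
    rw [Finset.sum_range_succ, ← dot_eq n A B i j m]
    exact Nat.add_comm _ _

theorem mul_sound {n p A B C : ℕ} (h : chkMul n p A B C = true) :
    toM n p A * toM n p B = toM n p C := by
  ext i j
  have h1 := loop_spec h i.1 (Nat.zero_le _) (by have := i.2; omega)
  have h2 := loop_spec h1 j.1 (Nat.zero_le _) (by have := j.2; omega)
  have h3 : dot n A B i.1 j.1 n % p = ent n C i.1 j.1 := Nat.eq_of_beq_eq_true h2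
  rw [Matrix.mul_apply]
  unfold toM
  rw [← h3, ZMod.natCast_mod, dot_eq, Nat.cast_sum,
    ← Fin.sum_univ_eq_sum_range (fun k => ((ent n A i.1 k * ent n B k j.1 : ℕ) : ZMod p)) n]
  apply Finset.sum_congr rfl
  intro k _
  rw [Nat.cast_mul]

theorem one_sound {n p C : ℕ} (h : chkOne n C = true) : toM n p C = 1 := by
  ext i j
  have h1 := loop_spec h i.1 (Nat.zero_le _) (by have := i.2; omega)
  have h2 := loop_spec h1 j.1 (Nat.zero_le _) (by have := j.2; omega)
  have h3 : ent n C i.1 j.1 = cond (Nat.beq i.1 j.1) 1 0 := Nat.eq_of_beq_eq_true h2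
  unfold toM
  rw [h3, Matrix.one_apply]
  by_cases hij : i = j
  · subst hij
    simp
  · have : i.1 ≠ j.1 := fun h => hij (Fin.ext h)
    have hb : Nat.beq i.1 j.1 = false := by
      cases hb : Nat.beq i.1 j.1
      · rfl
      · exact absurd (Nat.eq_of_beq_eq_true hb) this
    rw [hb, if_neg hij]
    simp

end Cfsg.Agent.Lib.Helper19.MatC
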