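import Cfsg.Agent.Lib.Helper19.TC2Q

/-!
# Orders and simplicity of presented groups from Todd–Coxeter certificates:
subgroups generated by words, derived relators, refined maximality criterion
-/

set_option autoImplicit false

namespace Cfsg.Agent.Lib.Helper19.TC2

open Cfsg.Agent.Lib.Helper19.TCS (fld RC blt_iff evn ncard_interval selW selW_prop)

/-- the subgroup generated by the words of a list -/
def KW {G : Type*} [Group G] (el : ℕ → G) (ws : List (List ℕ)) : Subgroup G :=
  Subgroup.closure {g | ∃ w ∈ ws, evn el w = g}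

theorem KW_mono {G : Type*} [Group G] (el : ℕ → G) {ws ws' : List (List ℕ)}
    (h : ∀ w ∈ ws', w ∈ ws) : KW el ws' ≤ KW el ws := by
  apply Subgroup.closure_mono
  rintro _ ⟨w, hw, rfl⟩
  exact ⟨w, h w hw, rfl⟩

theorem KW_nil {G : Type*} [Group G] (el : ℕ → G) : KW el [] = ⊥ := by
  unfold KW
  rw [Subgroup.closure_eq_bot_iff]
  rintro _ ⟨k, hk, _⟩
  simp at hk

theorem mem_KW {G : Type*} [Group G] (el : ℕ → G) {ws : List (List ℕ)} {w : List ℕ} (h : w ∈ ws) :
    evn el w ∈ KW el ws := Subgroup.subset_closure ⟨w, h, rfl⟩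

theorem closure_eq_KW {G : Type*} [Group G] (el : ℕ → G) {ws : List (List ℕ)} {S : Set G}
    (h1 : ∀ s ∈ S, ∃ w ∈ ws, s = evn el w) (h2 : ∀ w ∈ ws, evn el w ∈ Subgroup.closure S) :
    Subgroup.closure S = KW el ws := by
  apply le_antisymm
  · rw [Subgroup.closure_le]
    intro s hs
    obtain ⟨w, hw, rfl⟩ := h1 s hs
    exact mem_KW el hw
  · unfold KW
    rw [Subgroup.closure_le]
    rintro _ ⟨w, hw, rfl⟩
    exact h2 w hw

noncomputable section

section lbw
variable (B : ParB) (EO POS : Tb) (ew em : ℕ) (ws : List (List ℕ)) (β : ℕ)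

/-- the check of an enumeration of (a part of) an orbit of a subgroup generated by words -/
def chkOW (t : ℕ) : Bool :=
  and (Nat.blt (eP B EO ew em t) B.N)
    (and (Nat.beq (rd B.bw B.bm B.k B.km POS (eP B EO ew em t)) t)
      (cond (Nat.beq t 0) (Nat.beq (eP B EO ew em t) β)
        (and (Nat.blt (ePar B EO ew em t) t)
          (Nat.beq (app B (selW ws (eGen B EO ew em t)) (eP B EO ew em (ePar B EO ew em t)))
            (eP B EO ew em t)))))

variable {B EO POS ew em ws β}
variable {G : Type*} [Group G] {el : ℕ → G} {L : ℕ} (ψ : G →* Equiv.Perm (Fin B.N))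

theorem lb_orbitW (hψ : ∀ k < L, ∀ i : Fin B.N, (ψ (el k) i).1 = fB B k i.1)
    (hJ : ∀ w ∈ ws, ∀ k ∈ w, k < L) {n : ℕ} (h : loop (chkOW B EO POS ew em ws β) 0 n = true)
    (βf : Fin B.N) (hβ : βf.1 = β) :
    ∃ O : Finset (Fin B.N), O.card = n ∧ ∀ y ∈ O, ∃ x ∈ KW el ws, ψ x βf = y := by
  have hc : ∀ t < n, chkOW B EO POS ew em ws β t = true :=
    fun t ht => loop_spec h t (Nat.zero_le _) (by omega)
  have hlt : ∀ t < n, eP B EO ew em t < B.N := by
    intro t ht
    have := hc t ht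
    unfold chkOW at this
    rw [Bool.and_eq_true, blt_iff] at this
    exact this.1
  have hpos : ∀ t < n, rd B.bw B.bm B.k B.km POS (eP B EO ew em t) = t := by
    intro t ht
    have := hc t ht
    unfold chkOW at this
    rw [Bool.and_eq_true, Bool.and_eq_true, Nat.beq_eq] at this
    exact this.2.1
  let e : Fin n → Fin B.N := fun t => ⟨eP B EO ew em t.1, hlt t.1 t.2⟩
  have he : Function.Injective e := by
    intro s t hst
    have h1 : eP B EO ew em s.1 = eP B EO ew em t.1 := congrArg Fin.val hst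
    apply Fin.ext
    rw [← hpos s.1 s.2, ← hpos t.1 t.2, h1]
  refine ⟨Finset.univ.image e, by rw [Finset.card_image_of_injective _ he]; simp, ?_⟩
  have hreach : ∀ t, ∀ ht : t < n, ∃ x ∈ KW el ws, ψ x βf = ⟨eP B EO ew em t, hlt t ht⟩ := by
    intro t
    induction t using Nat.strong_induction_on with
    | _ t ih =>
      intro ht
      have := hc t ht
      unfold chkOW at this
      rw [Bool.and_eq_true, Bool.and_eq_true] at this
      have h3 := this.2.2
      cases h0 : Nat.beq t 0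
      · rw [h0] at h3
        simp only [cond_false] at h3
        rw [Bool.and_eq_true, blt_iff, Nat.beq_eq] at h3
        obtain ⟨k1, k3⟩ := h3
        obtain ⟨x, hx, hxe⟩ := ih _ k1 (by omega)
        rcases selW_prop ws (eGen B EO ew em t) with hs | hs
        · refine ⟨evn el (selW ws (eGen B EO ew em t)) * x,
            (KW el ws).mul_mem (mem_KW el hs) hx, ?_⟩
          rw [map_mul, Equiv.Perm.mul_apply, hxe]
          apply Fin.ext
          rw [psi_evn ψ hψ _ (hJ _ hs)]
          exact k3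
        · rw [hs] at k3
          refine ⟨x, hx, ?_⟩
          rw [hxe]
          apply Fin.ext
          exact k3
      · rw [h0] at h3
        simp only [cond_true] at h3
        rw [Nat.beq_eq] at h3
        refine ⟨1, (KW el ws).one_mem, ?_⟩
        rw [map_one]
        apply Fin.ext
        exact hβ.trans h3.symm
  intro y hy
  obtain ⟨t, _, rfl⟩ := Finset.mem_image.1 hy
  exact hreach t.1 t.2

theorem fix_KW (hψ : ∀ k < L, ∀ i : Fin B.N, (ψ (el k) i).1 = fB B k i.1)
    {ws' : List (List ℕ)} (hJ : ∀ w ∈ ws', ∀ k ∈ w, k < L) (βf : Fin B.N)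
    (hf : ∀ w ∈ ws', app B w βf.1 = βf.1) : ∀ x ∈ KW el ws', ψ x βf = βf := by
  apply Cfsg.Agent.Lib.Helper19.TCS.fix_of_closure
  rintro _ ⟨w, hw, rfl⟩
  apply Fin.ext
  rw [psi_evn ψ hψ w (hJ w hw), hf w hw]

theorem lb_stepW {ws' : List (List ℕ)} {n : ℕ}
    (hψ : ∀ k < L, ∀ i : Fin B.N, (ψ (el k) i).1 = fB B k i.1)
    (hJ : ∀ w ∈ ws, ∀ k ∈ w, k < L) (hsub : ∀ w ∈ ws', w ∈ ws)
    (h : loop (chkOW B EO POS ew em ws β) 0 n = true) (hβ : β < B.N)
    (hf : ∀ w ∈ ws', app B w β = β) : LBStep ψ (KW el ws) (KW el ws') n :=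
  ⟨KW_mono el hsub, ⟨β, hβ⟩, fix_KW ψ hψ (fun w hw => hJ w (hsub w hw)) ⟨β, hβ⟩ hf,
    lb_orbitW ψ hψ hJ h ⟨β, hβ⟩ rfl⟩

end lbw

end

/-- a word which traces from the first row to itself lies in the subgroup -/
theorem word_mem {P : Par} {G : Type*} [Group G] {H : Subgroup G} {el : ℕ → G}
    (hyp : Hyp P H el) (hrow : ∀ a < P.M, row P a = true) (l : List Letter)
    (hl : ∀ p ∈ l, p ∈ P.LS) (ht : trace P 0 l 0 = 0) (hM : 0 < P.M) : ev el l ∈ H := by
  have h := trace_sound (val_zero hyp hrow) l hl 0 (by rw [ht]; omega)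
  rw [ht, rep_zero, one_mul] at h
  unfold RC at h
  simpa using h

theorem word_oneJ {P : Par} {G : Type*} [Group G] (el : ℕ → G) (J : List ℕ)
    (hyp : Hyp P (KK el []) (fun k => el (jm J k))) (hrow : ∀ a < P.M, row P a = true)
    (hsel : ∀ k < P.LS.length, (sel P.LS k).1 = k) (l gl : List ℕ)
    (hl : ∀ k ∈ l, k < P.LS.length) (hg : l.map (jm J) = gl)
    (ht : trace P 0 (l.map (sel P.LS)) 0 = 0) (hM : 0 < P.M) : evn el gl = 1 := by
  have h := word_mem hyp hrow (l.map (sel P.LS)) (leaf_mem P l _ rfl hl) ht hM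
  rw [KK_nil, Subgroup.mem_bot, leaf_ev P _ hsel l _ rfl hl, evn_jm, hg] at h
  exact h

section abstract4
variable {G : Type*} [Group G]

/-- maximality of a point stabiliser from the lengths of its orbits, with witnesses against the
unions of orbits which pass the divisibility test -/
theorem isCoatom_of_colours' {N r : ℕ} (ψ : G →* Equiv.Perm (Fin N)) (z : Fin N) (H : Subgroup G)
    (hfix : ∀ h ∈ H, ψ h z = z) (hstab : ∀ x, ψ x z = z → x ∈ H) (htr : ∀ i, ∃ g, ψ g z = i)
    (col : Fin N → Fin r) (m : Fin r → ℕ)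
    (hcol : ∀ i j, col i = col j → ∃ h ∈ H, ψ h i = j)
    (hm : ∀ c, (Finset.univ.filter (fun i => col i = c)).card = m c)
    (harith : ∀ S : Finset (Fin r), col z ∈ S → (∑ c ∈ S, m c) ∣ N →
      S = {col z} ∨ S = Finset.univ ∨
        ∃ (g : G) (x : Fin N), col (ψ g z) ∈ S ∧ col x ∈ S ∧ col (ψ g x) ∉ S)
    (hz : m (col z) = 1) (hN : 1 < N) : IsCoatom H := by
  classical
  have hidx : H.index = N := by
    unfold Subgroup.index
    rw [card_quot_eq_orbit H ψ z hfix hstab]
    have : {i | ∃ g, ψ g z = i} = Set.univ := Set.eq_univ_of_forall htr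
    rw [this, Set.ncard_univ]
    simp
  constructor
  · intro hT
    rw [hT, Subgroup.index_top] at hidx
    omega
  · intro L hL
    let OL : Finset (Fin N) := Finset.univ.filter (fun i => ∃ l ∈ L, ψ l z = i)
    have hOL : ∀ i, i ∈ OL ↔ ∃ l ∈ L, ψ l z = i := by
      intro i
      simp only [OL, Finset.mem_filter, Finset.mem_univ, true_and]
    have hzO : z ∈ OL := (hOL z).2 ⟨1, L.one_mem, by simp⟩
    let S : Finset (Fin r) := OL.image col
    have hfull : ∀ j, col j ∈ S → j ∈ OL := by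
      intro j hj
      obtain ⟨i0, hi0, hc⟩ := Finset.mem_image.1 hj
      obtain ⟨h, hh, rfl⟩ := hcol i0 j hc
      obtain ⟨l, hl, rfl⟩ := (hOL i0).1 hi0
      exact (hOL _).2 ⟨h * l, L.mul_mem (hL.le hh) hl, by rw [map_mul, Equiv.Perm.mul_apply]⟩
    have hfib : ∀ c ∈ S, OL.filter (fun i => col i = c) = Finset.univ.filter (fun i => col i = c) := by
      intro c hc
      ext j
      simp only [Finset.mem_filter, Finset.mem_univ, true_and]
      constructor
      · exact fun h => h.2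
      · intro hj
        exact ⟨hfull j (hj ▸ hc), hj⟩
    have hcard : OL.card = ∑ c ∈ S, m c := by
      rw [Finset.card_eq_sum_card_fiberwise (f := col) (t := S)
        (fun i hi => Finset.mem_image_of_mem col hi)]
      apply Finset.sum_congr rfl
      intro c hc
      rw [hfib c hc, hm]
    have hrel : H.relIndex L = OL.card := by
      unfold Subgroup.relIndex Subgroup.index
      rw [card_quot_eq_orbit (H.subgroupOf L) (ψ.comp L.subtype) z
        (fun h hh => hfix _ (Subgroup.mem_subgroupOf.1 hh))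
        (fun x hx => Subgroup.mem_subgroupOf.2 (hstab _ hx))]
      have : {i | ∃ g : L, (ψ.comp L.subtype) g z = i} = (OL : Set (Fin N)) := by
        ext i
        rw [Finset.mem_coe, hOL]
        constructor
        · rintro ⟨g, rfl⟩
          exact ⟨g.1, g.2, rfl⟩
        · rintro ⟨l, hl, rfl⟩
          exact ⟨⟨l, hl⟩, rfl⟩
      rw [this, Set.ncard_coe_finset]
    have hdvd : (∑ c ∈ S, m c) ∣ N := by
      rw [← hcard, ← hrel, ← hidx, ← Subgroup.relIndex_mul_index hL.le]
      exact Dvd.intro _ rfl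
    rcases harith S (Finset.mem_image_of_mem col hzO) hdvd with hS | hS | ⟨g, x, h1, h2, h3⟩
    · exfalso
      have h1 : OL.card = 1 := by rw [hcard, hS, Finset.sum_singleton, hz]
      obtain ⟨w, hw⟩ := Finset.card_eq_one.1 h1
      have hzw : z = w := by
        have := hzO
        rw [hw] at this
        exact Finset.mem_singleton.1 this
      apply not_le_of_gt hL
      intro l hl
      apply hstab
      have : ψ l z ∈ OL := (hOL _).2 ⟨l, hl, rfl⟩
      rw [hw] at this
      rw [Finset.mem_singleton.1 this, hzw]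
    · have h1 : OL.card = N := by
        rw [hcard, hS]
        have := Finset.card_eq_sum_card_fiberwise (f := col) (s := Finset.univ)
          (t := Finset.univ) (fun i _ => Finset.mem_univ _)
        rw [Finset.card_univ, Fintype.card_fin] at this
        rw [this]
        apply Finset.sum_congr rfl
        intro c _
        rw [hm]
      have h2 : OL = Finset.univ := by
        apply Finset.eq_univ_of_card
        rw [h1, Fintype.card_fin]
      rw [eq_top_iff]
      intro g _
      have : ψ g z ∈ OL := by rw [h2]; exact Finset.mem_univ _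
      obtain ⟨l, hl, hlg⟩ := (hOL _).1 this
      have h3 : l⁻¹ * g ∈ H := by
        apply hstab
        rw [map_mul, map_inv, Equiv.Perm.mul_apply, Equiv.Perm.inv_eq_iff_eq, hlg]
      have := L.mul_mem hl (hL.le h3)
      simpa using this
    · exfalso
      obtain ⟨l, hl, hlg⟩ := (hOL _).1 (hfull _ h1)
      have hgL : g ∈ L := by
        have h4 : l⁻¹ * g ∈ H := by
          apply hstab
          rw [map_mul, map_inv, Equiv.Perm.mul_apply, Equiv.Perm.inv_eq_iff_eq, hlg]
        have := L.mul_mem hl (hL.le h4)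
        simpa using this
      obtain ⟨l2, hl2, rfl⟩ := (hOL _).1 (hfull _ h2)
      apply h3
      apply Finset.mem_image_of_mem
      exact (hOL _).2 ⟨g * l2, L.mul_mem hgL hl2, by rw [map_mul, Equiv.Perm.mul_apply]⟩

theorem normalizes_of_perm (S Z : Set G) (h : ∀ s ∈ S, ∀ z ∈ Z, ∃ z' ∈ Z, s * z = z' * s)
    (h' : ∀ s ∈ S, ∀ z ∈ Z, ∃ z' ∈ Z, z * s = s * z') :
    ∀ x ∈ Subgroup.closure S, ∀ a ∈ Subgroup.closure Z, x * a * x⁻¹ ∈ Subgroup.closure Z := by
  have k1 : ∀ s ∈ S, ∀ a ∈ Subgroup.closure Z, s * a * s⁻¹ ∈ Subgroup.closure Z := by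
    intro s hs a ha
    induction ha using Subgroup.closure_induction with
    | mem z hz =>
      obtain ⟨z', hz', e⟩ := h s hs z hz
      rw [e, mul_inv_cancel_right]
      exact Subgroup.subset_closure hz'
    | one => simp
    | mul a b _ _ iha ihb =>
      have e : s * (a * b) * s⁻¹ = (s * a * s⁻¹) * (s * b * s⁻¹) := by group
      rw [e]
      exact Subgroup.mul_mem _ iha ihb
    | inv a _ iha =>
      have e : s * a⁻¹ * s⁻¹ = (s * a * s⁻¹)⁻¹ := by group
      rw [e]
      exact Subgroup.inv_mem _ iha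
  have k2 : ∀ s ∈ S, ∀ a ∈ Subgroup.closure Z, s⁻¹ * a * s⁻¹⁻¹ ∈ Subgroup.closure Z := by
    intro s hs a ha
    induction ha using Subgroup.closure_induction with
    | mem z hz =>
      obtain ⟨z', hz', e⟩ := h' s hs z hz
      rw [inv_inv, mul_assoc, e, inv_mul_cancel_left]
      exact Subgroup.subset_closure hz'
    | one => simp
    | mul a b _ _ iha ihb =>
      have e : s⁻¹ * (a * b) * s⁻¹⁻¹ = (s⁻¹ * a * s⁻¹⁻¹) * (s⁻¹ * b * s⁻¹⁻¹) := by group
      rw [e]
      exact Subgroup.mul_mem _ iha ihb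
    | inv a _ iha =>
      have e : s⁻¹ * a⁻¹ * s⁻¹⁻¹ = (s⁻¹ * a * s⁻¹⁻¹)⁻¹ := by group
      rw [e]
      exact Subgroup.inv_mem _ iha
  intro x hx
  induction hx using Subgroup.closure_induction_left with
  | one => intro a ha; simpa using ha
  | mul_left s hs y _ ih =>
    intro a ha
    have e : s * y * a * (s * y)⁻¹ = s * (y * a * y⁻¹) * s⁻¹ := by group
    rw [e]
    exact k1 s hs _ (ih a ha)
  | inv_mul_cancel s hs y _ ih =>
    intro a ha
    have e : s⁻¹ * y * a * (s⁻¹ * y)⁻¹ = s⁻¹ * (y * a * y⁻¹) * s⁻¹⁻¹ := by group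
    rw [e]
    exact k2 s hs _ (ih a ha)

/-- a quotient all of whose generators are trivial -/
theorem top_of_quot_bot (N : Subgroup G) [N.Normal] (h : (⊤ : Subgroup (G ⧸ N)) ≤ ⊥) : N = ⊤ := by
  rw [eq_top_iff]
  intro g _
  rw [← QuotientGroup.eq_one_iff]
  exact Subgroup.mem_bot.1 (h (Subgroup.mem_top _))

end abstract4

section tables3
variable {B : ParB}

theorem conj_tableW2 (fT₁ fT₂ : ℕ → ℕ) (tw₁ tw₂ w : List ℕ) (hA₁ : ∀ i < B.N, app B tw₁ i = fT₁ i)
    (hA₂ : ∀ i < B.N, app B tw₂ i = fT₂ i) (hlt : ∀ i < B.N, app B w i < B.N)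
    (hB : ∀ i < B.N, app B w (fT₁ i) = fT₂ (app B w i)) :
    ∀ i < B.N, app B (w ++ tw₁) i = app B (tw₂ ++ w) i := by
  intro i hi
  rw [app_append, app_append, hA₁ i hi, hA₂ _ (hlt i hi), hB i hi]

theorem comm_table2 (fT₁ fT₂ : ℕ → ℕ) (tw₁ tw₂ : List ℕ) (hA₁ : ∀ i < B.N, app B tw₁ i = fT₁ i)
    (hA₂ : ∀ i < B.N, app B tw₂ i = fT₂ i) (hlt₁ : ∀ i < B.N, app B tw₁ i < B.N)
    (hlt₂ : ∀ i < B.N, app B tw₂ i < B.N) (hB : ∀ i < B.N, fT₁ (fT₂ i) = fT₂ (fT₁ i)) :
    ∀ i < B.N, app B (tw₁ ++ tw₂) i = app B (tw₂ ++ tw₁) i := by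
  intro i hi
  rw [app_append, app_append, hA₁ _ (hlt₂ i hi), hA₂ _ (hlt₁ i hi), hA₂ i hi, hA₁ i hi, hB i hi]

end tables3

end Cfsg.Agent.Lib.Helper19.TC2
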