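import Cfsg.Agent.Lib.Helper19.TCG
import Cfsg.Prelude.Def_Spor_Suz

/-! The presentation of `Suz`: words for the relators (generated file). -/

set_option autoImplicit false
set_option maxRecDepth 100000

namespace Cfsg.Agent.Lib.Helper19.PresSuz

open Cfsg.Spor Cfsg.Agent.Lib.Helper19.TCS
open Cfsg.Spor.Suz

def num : Gen → ℕ
  | .a => 0
  | .b => 1
  | .c => 2
  | .d => 3
  | .e => 4
  | .f => 5
  | .g => 6

def gen : ℕ → Gen
  | 0 => .a
  | 1 => .b
  | 2 => .c
  | 3 => .d
  | 4 => .e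
  | 5 => .f
  | 6 => .g
  | _ => .a

theorem num_gen : ∀ k < 7, num (gen k) = k := by decide
theorem gen_num (x : Gen) : gen (num x) = x := by cases x <;> rfl
theorem num_lt (x : Gen) : num x < 7 := by cases x <;> decide
theorem node (x : Gen) : x ∈ coxNodes edges := by cases x <;> decide

noncomputable def el (k : ℕ) : Cfsg.Spor.Suz := PresentedGroup.of (gen k)

theorem of_sq' (x : Gen) : (PresentedGroup.of x * PresentedGroup.of x : Cfsg.Spor.Suz) = 1 :=
  of_sq edges extra (node x)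

theorem el_sq (k : ℕ) : el k * el k = 1 := of_sq' _

theorem evn_el (l : List Gen) :
    evn el (l.map num) = (l.map (PresentedGroup.of : Gen → Cfsg.Spor.Suz)).prod := by
  unfold evn
  rw [List.map_map]
  congr 1
  apply List.map_congr_left
  intro x _
  simp [el, gen_num]

theorem cox_one (x y : ℕ) :
    evn el ((List.replicate (coxLabel edges (gen x) (gen y)) [x, y]).flatten) = 1 :=
  cox_word el x y _ (of_cox edges extra (node _) (node _))

def xg0 : List Gen := .a :: (List.replicate 4 ([.c, .d]).reverse).flatten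

theorem xl0 {K : Type*} [Group K] (φ : Gen → K) (hφ : ∀ x, φ x * φ x = 1) :
    FreeGroup.lift φ (a * ((c * d) ^ 4)⁻¹) = (xg0.map φ).prod := by
  rw [xg0, shapeI φ hφ]
  simp [mul_assoc]

def xg1 : List Gen := .a :: (List.replicate 2 ([.f, .g]).reverse).flatten

theorem xl1 {K : Type*} [Group K] (φ : Gen → K) (hφ : ∀ x, φ x * φ x = 1) :
    FreeGroup.lift φ (a * ((f * g) ^ 2)⁻¹) = (xg1.map φ).prod := by
  rw [xg1, shapeI φ hφ]
  simp [mul_assoc]

def xg2 : List Gen := (List.replicate 5 [.a, .b, .c, .f]).flatten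

theorem xl2 {K : Type*} [Group K] (φ : Gen → K) (hφ : ∀ x, φ x * φ x = 1) :
    FreeGroup.lift φ ((a * b * c * f) ^ 5) = (xg2.map φ).prod := by
  rw [xg2, prod_rep]
  simp [mul_assoc]

def xg3 : List Gen := (List.replicate 5 [.b, .f, .g]).flatten

theorem xl3 {K : Type*} [Group K] (φ : Gen → K) (hφ : ∀ x, φ x * φ x = 1) :
    FreeGroup.lift φ ((b * f * g) ^ 5) = (xg3.map φ).prod := by
  rw [xg3, prod_rep]
  simp [mul_assoc]

def xg4 : List Gen := (List.replicate 3 ((List.replicate 5 [.b, .c, .d, .c, .d]).flatten ++ [.e])).flatten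

theorem xl4 {K : Type*} [Group K] (φ : Gen → K) (hφ : ∀ x, φ x * φ x = 1) :
    FreeGroup.lift φ (((b * c * d * c * d) ^ 5 * e) ^ 3) = (xg4.map φ).prod := by
  rw [xg4, prod_rep, List.map_append, List.prod_append, prod_rep]
  simp [mul_assoc]

theorem lift_extra {K : Type*} [Group K] (φ : Gen → K) (hφ : ∀ x, φ x * φ x = 1)
    (h0 : (xg0.map φ).prod = 1) (h1 : (xg1.map φ).prod = 1) (h2 : (xg2.map φ).prod = 1) (h3 : (xg3.map φ).prod = 1) (h4 : (xg4.map φ).prod = 1) :
    ∀ r ∈ extra, FreeGroup.lift φ r = 1 := by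
  intro r hr
  simp only [extra, List.mem_cons, List.not_mem_nil, or_false] at hr
  rcases hr with rfl | rfl | rfl | rfl | rfl
  · rw [xl0 φ hφ]; exact h0
  · rw [xl1 φ hφ]; exact h1
  · rw [xl2 φ hφ]; exact h2
  · rw [xl3 φ hφ]; exact h3
  · rw [xl4 φ hφ]; exact h4

theorem xg0_one : evn el (xg0.map num) = 1 := by
  rw [evn_el, ← xl0 _ of_sq']
  exact lift_of_eq_one (Or.inr (by simp [extra]))

theorem xg1_one : evn el (xg1.map num) = 1 := by
  rw [evn_el, ← xl1 _ of_sq']
  exact lift_of_eq_one (Or.inr (by simp [extra]))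

theorem xg2_one : evn el (xg2.map num) = 1 := by
  rw [evn_el, ← xl2 _ of_sq']
  exact lift_of_eq_one (Or.inr (by simp [extra]))

theorem xg3_one : evn el (xg3.map num) = 1 := by
  rw [evn_el, ← xl3 _ of_sq']
  exact lift_of_eq_one (Or.inr (by simp [extra]))

theorem xg4_one : evn el (xg4.map num) = 1 := by
  rw [evn_el, ← xl4 _ of_sq']
  exact lift_of_eq_one (Or.inr (by simp [extra]))

end Cfsg.Agent.Lib.Helper19.PresSuz
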